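import Cfsg.Agent.Lib.ChevOrder.WeylIso
import Cfsg.Prelude.Def_ChevG2
import Cfsg.Prelude.Def_ChevB2
import Cfsg.Prelude.Def_ChevD4
import Cfsg.Prelude.Def_ChevF4
import Cfsg.Prelude.Def_ChevE6
import Cfsg.Prelude.Def_ChevE7
import Cfsg.Prelude.Def_ChevE8

/-! The order checks of products of simple reflections for the seven data. -/

set_option autoImplicit false

namespace Cfsg.Agent.Lib.ChevOrder.WeylCheck

open Cfsg.Lie Cfsg.Agent.Lib.ChevOrder.WeylIso

theorem checkG2 : ∀ i j : Fin chevG2.rank,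
    ordCheck chevG2 i j (CoxeterMatrix.G₂ (Fin.cast rfl i) (Fin.cast rfl j)) = true := by
  decide +kernel

theorem checkB2 : ∀ i j : Fin chevB2.rank,
    ordCheck chevB2 i j ((CoxeterMatrix.B 2) (Fin.cast rfl i) (Fin.cast rfl j)) = true := by
  decide +kernel

theorem checkD4 : ∀ i j : Fin chevD4.rank,
    ordCheck chevD4 i j (coxeterD4 (Fin.cast rfl i) (Fin.cast rfl j)) = true := by
  decide +kernel

theorem checkF4 : ∀ i j : Fin chevF4.rank,
    ordCheck chevF4 i j (CoxeterMatrix.F₄ (Fin.cast rfl i) (Fin.cast rfl j)) = true := by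
  decide +kernel

theorem checkE6 : ∀ i j : Fin chevE6.rank,
    ordCheck chevE6 i j (CoxeterMatrix.E₆ (Fin.cast rfl i) (Fin.cast rfl j)) = true := by
  decide +kernel

theorem checkE7 : ∀ i j : Fin chevE7.rank,
    ordCheck chevE7 i j (CoxeterMatrix.E₇ (Fin.cast rfl i) (Fin.cast rfl j)) = true := by
  decide +kernel

theorem checkE8 : ∀ i j : Fin chevE8.rank,
    ordCheck chevE8 i j (CoxeterMatrix.E₈ (Fin.cast rfl i) (Fin.cast rfl j)) = true := by
  decide +kernel

end Cfsg.Agent.Lib.ChevOrder.WeylCheck
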